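-- helper37: package Nfin of the S1421 team project (complement of the unique singular subgroup
-- of prime order, with the same exponent).
import Mathlib
import Cfsg.Agent.Lib.Helper70.BG.S1421Defs
import Cfsg.Agent.S0051

set_option autoImplicit false

namespace Cfsg.Agent.Lib.Helper37.BG

open Cfsg Cfsg.Agent.Lib.Helper70.BG21

universe u

/-- a subgroup of prime order is generated by each of its non-identity elements -/
theorem le_zpowers_of_card_prime {G : Type u} [Group G] [Finite G] (X : Subgroup G) (p : ℕ)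
    [hp : Fact p.Prime] (hX : Nat.card X = p) (y : G) (hy : y ∈ X) (hy1 : y ≠ 1) :
    X ≤ Subgroup.zpowers y := by
  have h1 : Subgroup.zpowers y ≤ X := Subgroup.zpowers_le.mpr hy
  have h2 : orderOf y ∣ p := by
    have := orderOf_dvd_natCard (⟨y, hy⟩ : X)
    rw [hX, Subgroup.orderOf_mk] at this
    exact this
  have h3 : orderOf y = p := by
    rcases (Nat.dvd_prime hp.out).mp h2 with h | h
    · exact absurd (orderOf_eq_one_iff.mp h) hy1
    · exact h
  have h4 : Nat.card (Subgroup.zpowers y) = p := by rw [Nat.card_zpowers, h3]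
  exact (Subgroup.eq_of_le_of_card_ge h1 (by rw [hX, h4])).ge

/-- the exponent of a complement of a normal subgroup of prime order -/
theorem nfin_exponent {Γ : Type u} [Group Γ] [Finite Γ] (p : ℕ) [hp : Fact p.Prime]
    (K H : Subgroup Γ) [K.Normal] (hK : Nat.card K = p) (hc : Subgroup.IsComplement' K H)
    (hN3 : ∀ e : Γ, (∃ k : ℕ, e ^ p ^ k = 1) → e ^ p ≠ 1 → ¬ K ≤ Subgroup.zpowers e)
    (hex : ∃ e : Γ, e ∉ K ∧ e ^ p = 1) :
    ∀ g : Γ, g ^ Monoid.exponent ↥H = 1 := by
  have hmk : ∀ (g : Γ) (k : K) (h : H), (k : Γ) * (h : Γ) = g →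
      (QuotientGroup.mk g : Γ ⧸ K) = QuotientGroup.mk (h : Γ) := by
    intro g k h hkh
    rw [← hkh, QuotientGroup.mk_mul, (QuotientGroup.eq_one_iff _).mpr k.2, one_mul]
  have F1 : ∀ g : Γ, g ^ Monoid.exponent ↥H ∈ K := by
    intro g
    obtain ⟨⟨k, h⟩, hkh⟩ := hc.2 g
    have hh : (h : Γ) ^ Monoid.exponent ↥H = 1 := by
      have := Monoid.pow_exponent_eq_one h
      exact_mod_cast congrArg Subtype.val this
    rw [← QuotientGroup.eq_one_iff, QuotientGroup.mk_pow, hmk g k h hkh, ← QuotientGroup.mk_pow,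
      hh, QuotientGroup.mk_one]
  have F2 : p ∣ Monoid.exponent ↥H := by
    obtain ⟨e, heK, hep⟩ := hex
    obtain ⟨⟨k, h⟩, hkh⟩ := hc.2 e
    have hh1 : h ≠ 1 := by
      intro h1
      apply heK
      rw [← hkh]
      simp only [h1, OneMemClass.coe_one, mul_one]
      exact k.2
    have hhp : (h : Γ) ^ p ∈ K := by
      rw [← QuotientGroup.eq_one_iff, QuotientGroup.mk_pow, ← hmk e k h hkh,
        ← QuotientGroup.mk_pow, hep, QuotientGroup.mk_one]
    have hhp1 : h ^ p = 1 := by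
      have hmem : (h : Γ) ^ p ∈ K ⊓ H := ⟨hhp, H.pow_mem h.2 p⟩
      rw [disjoint_iff.mp hc.disjoint, Subgroup.mem_bot] at hmem
      exact Subtype.ext (by simpa using hmem)
    have ho : orderOf h = p := orderOf_eq_prime hhp1 hh1
    rw [← ho]
    exact Monoid.order_dvd_exponent h
  intro g
  obtain ⟨b, m, hm, ho⟩ :=
    Nat.exists_eq_pow_mul_and_not_dvd (orderOf_pos g).ne' p hp.out.ne_one
  have hep : (g ^ m) ^ p ^ b = 1 := by
    rw [← pow_mul, mul_comm, ← ho, pow_orderOf_eq_one]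
  have hen : (g ^ m) ^ Monoid.exponent ↥H = 1 := by
    by_contra he
    have hK' : K ≤ Subgroup.zpowers (g ^ m) :=
      (le_zpowers_of_card_prime K p hK _ (F1 (g ^ m)) he).trans
        (Subgroup.zpowers_le.mpr (Subgroup.pow_mem _ (Subgroup.mem_zpowers _) _))
    have h1 : (g ^ m) ^ p = 1 := by
      by_contra hne
      exact hN3 (g ^ m) ⟨b, hep⟩ hne hK'
    obtain ⟨c, hc'⟩ := F2
    apply he
    rw [hc', pow_mul, h1, one_pow]
  have hym : (g ^ Monoid.exponent ↥H) ^ m = 1 := by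
    rw [← pow_mul, mul_comm, pow_mul]
    exact hen
  have hyp : (g ^ Monoid.exponent ↥H) ^ p = 1 := by
    have := pow_card_eq_one' (G := K) (x := ⟨g ^ Monoid.exponent ↥H, F1 g⟩)
    rw [hK] at this
    simpa using congrArg Subtype.val this
  have hcop : Nat.Coprime m p := ((Nat.Prime.coprime_iff_not_dvd hp.out).mpr hm).symm
  have hdvd : orderOf (g ^ Monoid.exponent ↥H) ∣ Nat.gcd m p :=
    Nat.dvd_gcd (orderOf_dvd_of_pow_eq_one hym) (orderOf_dvd_of_pow_eq_one hyp)
  rw [hcop] at hdvd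
  exact orderOf_eq_one_iff.mp (Nat.dvd_one.mp hdvd)

/-- Package Nfin of the S1421 project. -/
theorem lemNfin (hT : LemT.{u}) : LemNfin.{u} := by
  intro G _ _ E R p _ X hXE hXc hEX hab hpow hsingp hsingX hN3 hex
  have hp := (Fact.out : p.Prime)
  -- every singular element lies in `X`
  have hsing : ∀ e ∈ E, e ≠ 1 → ¬ R e → e ∈ X := by
    intro e he he1 hR
    by_cases hep : e ^ p = 1
    · exact hsingX e he he1 hR hep
    · exfalso
      obtain ⟨k, hk⟩ := hsingp e he he1 hR
      obtain ⟨j, hj, ho⟩ := (Nat.dvd_prime_pow hp).mp (orderOf_dvd_of_pow_eq_one hk)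
      have hj1 : 1 ≤ j := by
        rcases Nat.eq_zero_or_pos j with h0 | h0
        · rw [h0, pow_zero, orderOf_eq_one_iff] at ho
          exact absurd ho he1
        · exact h0
      have he'1 : e ^ p ^ (j - 1) ≠ 1 := by
        intro h1
        have h2 := orderOf_dvd_of_pow_eq_one h1
        rw [ho] at h2
        have h3 := Nat.le_of_dvd (pow_pos hp.pos _) h2
        have h4 : p ^ (j - 1) < p ^ j := Nat.pow_lt_pow_right hp.one_lt (by omega)
        omega
      have he'p : (e ^ p ^ (j - 1)) ^ p = 1 := by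
        rw [← pow_mul, ← pow_succ, Nat.sub_add_cancel hj1, ← ho, pow_orderOf_eq_one]
      have he'X : e ^ p ^ (j - 1) ∈ X :=
        hsingX _ (E.pow_mem he _) he'1 (hpow e he _ hR he'1) he'p
      exact hN3 e he ⟨k, hk⟩ hep
        ((le_zpowers_of_card_prime X p hXc _ he'X he'1).trans
          (Subgroup.zpowers_le.mpr (Subgroup.pow_mem _ (Subgroup.mem_zpowers e) _)))
  haveI hXcomm : IsMulCommutative ↥X := by
    haveI := isCyclic_of_prime_card hXc
    exact IsCyclic.isMulCommutative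
  refine ⟨⟨X, hXE, hEX, hXcomm, hsing⟩, ?_⟩
  -- the complement
  haveI hKn : (X.subgroupOf E).Normal :=
    (Subgroup.normal_subgroupOf_iff_le_normalizer hXE).mpr hEX
  have hKc : Nat.card (X.subgroupOf E) = p := by
    rw [Nat.card_congr (Subgroup.subgroupOfEquivOfLe hXE).toEquiv, hXc]
  have hKp : IsPGroup p (X.subgroupOf E) := IsPGroup.of_card (n := 1) (by rw [hKc, pow_one])
  obtain ⟨Q, hKQ⟩ := hKp.exists_le_sylow
  have hQc : IsMulCommutative ↥(Q : Subgroup ↥E) := by
    haveI h1 := hab ((Q : Subgroup ↥E).map E.subtype) (Subgroup.map_subtype_le _)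
      (Q.isPGroup'.map E.subtype)
    rw [isMulCommutative_iff]
    intro a b
    have h2 := setLike_mul_comm
      (s := (Q : Subgroup ↥E).map E.subtype) (Subgroup.mem_map_of_mem _ a.2)
      (Subgroup.mem_map_of_mem _ b.2)
    apply Subtype.ext
    apply Subtype.ext
    simpa using h2
  have hN3' : ∀ e : ↥E, (∃ k : ℕ, e ^ p ^ k = 1) → e ^ p ≠ 1 →
      ¬ X.subgroupOf E ≤ Subgroup.zpowers e := by
    rintro e ⟨k, hk⟩ hep hKe
    refine hN3 (e : G) e.2 ⟨k, by simpa using congrArg Subtype.val hk⟩ ?_ ?_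
    · intro h
      apply hep
      exact Subtype.ext (by simpa using h)
    · intro x hx
      have hmem := hKe (show (⟨x, hXE hx⟩ : ↥E) ∈ X.subgroupOf E from hx)
      obtain ⟨i, hi⟩ := Subgroup.mem_zpowers_iff.mp hmem
      exact Subgroup.mem_zpowers_iff.mpr ⟨i, by simpa using congrArg Subtype.val hi⟩
  obtain ⟨T, hTQ, hTK, hTsup⟩ := hT p (Q : Subgroup ↥E) (X.subgroupOf E) Q.isPGroup' hQc hKQ hKc
    (by
      intro e heQ hep hKe
      obtain ⟨k, hk⟩ := Q.isPGroup' ⟨e, heQ⟩
      exact hN3' e ⟨k, by simpa using congrArg Subtype.val hk⟩ hep hKe)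
  obtain ⟨H, hH⟩ := Cfsg.Agent.S0051.result (X.subgroupOf E) (Q : Subgroup ↥E) hKQ
    (by
      rw [hKc]
      exact (Nat.Prime.coprime_iff_not_dvd hp).mpr Q.not_dvd_index)
    T hTQ hTK (by rw [sup_comm]; exact hTsup)
  have hex' : ∃ e : ↥E, e ∉ X.subgroupOf E ∧ e ^ p = 1 := by
    obtain ⟨e, he, heX, hep⟩ := hex
    exact ⟨⟨e, he⟩, heX, Subtype.ext (by simpa using hep)⟩
  refine ⟨H.map E.subtype, Subgroup.map_subtype_le _, ?_, ?_⟩
  · rw [← Monoid.exponent_eq_of_mulEquiv (H.equivMapOfInjective E.subtype E.subtype_injective)]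
    apply Nat.dvd_antisymm
    · exact Monoid.exponent_dvd_of_monoidHom H.subtype H.subtype_injective
    · rw [Monoid.exponent_dvd_iff_forall_pow_eq_one]
      exact nfin_exponent p (X.subgroupOf E) H hKc hH hN3' hex'
  · rintro e ⟨h, hhH, rfl⟩ he1
    by_contra hR
    have hx : (h : G) ∈ X := hsing _ h.2 he1 hR
    have hmem : h ∈ X.subgroupOf E ⊓ H := ⟨hx, hhH⟩
    rw [disjoint_iff.mp hH.disjoint, Subgroup.mem_bot] at hmem
    exact he1 (by simp [hmem])

end Cfsg.Agent.Lib.Helper37.BG
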