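-- helper37: package A2 of helper15's T12M project (Bender-Glauberman 13.12, M-side):
-- coprime action of a group of prime order on an elementary abelian group of order q^2.
import Mathlib
import Cfsg.Agent.Lib.Helper15.BG.Tau12Defs

set_option autoImplicit false

namespace Cfsg.Agent.Lib.Helper37.BG

open Cfsg

universe u

/-- the telescoping identity for `b = a⁻¹ (x a x⁻¹)` commuting with `x` -/
theorem tau12_telescope {G : Type u} [Group G] (x a : G)
    (hb : (a⁻¹ * (x * a * x⁻¹)) * x = x * (a⁻¹ * (x * a * x⁻¹))) (n : ℕ) :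
    (a⁻¹ * (x * a * x⁻¹)) ^ n = a⁻¹ * (x ^ n * a * (x ^ n)⁻¹) := by
  induction n with
  | zero => simp
  | succ n ih =>
    have hcomm : Commute (a⁻¹ * (x * a * x⁻¹)) (x ^ n) := (Commute.pow_right hb n)
    have h1 : a⁻¹ * (x * a * x⁻¹) = x ^ n * (a⁻¹ * (x * a * x⁻¹)) * (x ^ n)⁻¹ := by
      rw [← hcomm.eq, mul_inv_cancel_right]
    rw [pow_succ, ih]
    conv_lhs => rw [h1]
    rw [pow_succ]
    group

theorem pkA2_aux {G : Type u} [Group G] [Finite G] (p q : ℕ) (hp : p.Prime) (hq : q.Prime)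
    (hpq : p ≠ q) (A P : Subgroup G) (hA : Cfsg.IsElementaryAbelian q A)
    (hA2 : Nat.card A = q ^ 2) (hPA : P ≤ Subgroup.normalizer (A : Set G))
    (hP : Nat.card P = p) (hC : Nat.card ↥(A ⊓ Subgroup.centralizer (P : Set G)) = q) :
    ∃ A₂ : Subgroup G, A₂ ≤ A ∧ Nat.card A₂ = q ∧
      A₂ ⊓ Subgroup.centralizer (P : Set G) = ⊥ ∧
      ∀ e ∈ Subgroup.normalizer (A : Set G), (∀ x ∈ P, e * x = x * e) →
        e ∈ Subgroup.normalizer (A₂ : Set G) := by
  haveI : Fact p.Prime := ⟨hp⟩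
  obtain ⟨hAc, hAq⟩ := hA
  have hcyc : IsCyclic P := isCyclic_of_prime_card hP
  obtain ⟨⟨x, hxP⟩, hx⟩ := hcyc.exists_generator
  have hxN : x ∈ Subgroup.normalizer (A : Set G) := hPA hxP
  have hconj : ∀ a ∈ A, x * a * x⁻¹ ∈ A := fun a ha => (Subgroup.mem_normalizer_iff.mp hxN a).mp ha
  have hxp : x ^ p = 1 := by
    have h1 : (⟨x, hxP⟩ : P) ^ Nat.card P = 1 := pow_card_eq_one'
    rw [hP] at h1
    have h2 := congrArg Subtype.val h1
    simpa using h2
  have hcent : ∀ g : G, g ∈ Subgroup.centralizer (P : Set G) ↔ g * x = x * g := by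
    intro g
    constructor
    · intro hg
      exact (hg x hxP).symm
    · intro hg y hy
      have h1 := hx ⟨y, hy⟩
      obtain ⟨k, hk⟩ := Subgroup.mem_zpowers_iff.mp h1
      have h2 : x ^ k = y := by
        have h3 := congrArg Subtype.val hk
        simpa using h3
      rw [← h2]
      have h4 : Commute g x := hg
      exact (h4.zpow_right k).eq.symm
  have hcomm : ∀ a ∈ A, ∀ b ∈ A, a * b = b * a := by
    intro a ha b hb
    exact setLike_mul_comm (s := A) ha hb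
  -- the commutator map
  let f : ↥A →* G := MonoidHom.mk' (fun a => (a : G)⁻¹ * (x * a * x⁻¹)) (by
    intro a b
    have ha' := hconj a a.2
    have hb' := hconj b b.2
    have h1 : (x * (a : G) * x⁻¹) * (b : G)⁻¹ = (b : G)⁻¹ * (x * a * x⁻¹) :=
      hcomm _ ha' _ (A.inv_mem b.2)
    show ((a * b : A) : G)⁻¹ * (x * ((a * b : A) : G) * x⁻¹) = _
    rw [Subgroup.coe_mul, mul_inv_rev]
    have h2 : x * ((a : G) * b) * x⁻¹ = (x * a * x⁻¹) * (x * b * x⁻¹) := by group
    rw [h2]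
    calc (b : G)⁻¹ * (a : G)⁻¹ * (x * a * x⁻¹ * (x * b * x⁻¹))
        = (a : G)⁻¹ * ((b : G)⁻¹ * (x * a * x⁻¹)) * (x * b * x⁻¹) := by
          rw [hcomm _ (A.inv_mem b.2) _ (A.inv_mem a.2)]; group
      _ = (a : G)⁻¹ * ((x * a * x⁻¹) * (b : G)⁻¹) * (x * b * x⁻¹) := by rw [h1]
      _ = _ := by group)
  have hf : ∀ a : A, f a = (a : G)⁻¹ * (x * a * x⁻¹) := fun a => rfl
  have hfA : ∀ a : A, f a ∈ A := fun a => A.mul_mem (A.inv_mem a.2) (hconj a a.2)
  have hker : f.ker = (A ⊓ Subgroup.centralizer (P : Set G)).subgroupOf A := by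
    ext a
    rw [MonoidHom.mem_ker, hf, Subgroup.mem_subgroupOf, Subgroup.mem_inf, hcent]
    constructor
    · intro h1
      refine ⟨a.2, ?_⟩
      have h2 : x * (a : G) * x⁻¹ = a := by
        have := congrArg (fun z => (a : G) * z) h1
        simpa using this
      calc (a : G) * x = (x * a * x⁻¹) * x := by rw [h2]
        _ = x * a := by group
    · rintro ⟨_, h1⟩
      rw [← h1]
      group
  have hcardker : Nat.card f.ker = q := by
    rw [hker, Nat.card_congr (Subgroup.subgroupOfEquivOfLe inf_le_left).toEquiv, hC]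
  have hcardrange : Nat.card f.range = q := by
    have h1 := Subgroup.card_mul_index f.ker
    rw [Subgroup.index_ker, hcardker, hA2, pow_two] at h1
    exact Nat.eq_of_mul_eq_mul_left hq.pos h1
  refine ⟨f.range, ?_, hcardrange, ?_, ?_⟩
  · rintro b ⟨a, rfl⟩
    exact hfA a
  · rw [eq_bot_iff]
    rintro b ⟨⟨a, rfl⟩, hb⟩
    rw [Subgroup.mem_bot]
    have hb' : f a ∈ Subgroup.centralizer (P : Set G) := hb
    rw [hcent, hf] at hb'
    have h1 := tau12_telescope x (a : G) hb' p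
    rw [hxp] at h1
    have h2 : f a ^ p = 1 := by
      rw [hf, h1]
      group
    have h3 : f a ^ q = 1 := hAq _ (hfA a)
    have h4 := pow_gcd_eq_one.mpr ⟨h2, h3⟩
    rw [(Nat.coprime_primes hp hq).mpr hpq, pow_one] at h4
    exact h4
  · intro e he hex
    have key : ∀ e' ∈ Subgroup.normalizer (A : Set G), e' * x = x * e' → ∀ n ∈ f.range,
        e' * n * e'⁻¹ ∈ f.range := by
      rintro e' he' hex' n ⟨a, rfl⟩
      have ha' : e' * (a : G) * e'⁻¹ ∈ A := (Subgroup.mem_normalizer_iff.mp he' a).mp a.2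
      refine ⟨⟨e' * (a : G) * e'⁻¹, ha'⟩, ?_⟩
      rw [hf, hf]
      show (e' * (a : G) * e'⁻¹)⁻¹ * (x * (e' * (a : G) * e'⁻¹) * x⁻¹) = _
      have h1 : x * e' = e' * x := hex'.symm
      have h2 : e'⁻¹ * x⁻¹ = x⁻¹ * e'⁻¹ := by
        rw [← mul_inv_rev, ← mul_inv_rev, h1]
      calc (e' * (a : G) * e'⁻¹)⁻¹ * (x * (e' * (a : G) * e'⁻¹) * x⁻¹)
          = e' * (a : G)⁻¹ * e'⁻¹ * ((x * e') * a * (e'⁻¹ * x⁻¹)) := by group
        _ = e' * (a : G)⁻¹ * e'⁻¹ * ((e' * x) * a * (x⁻¹ * e'⁻¹)) := by rw [h1, h2]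
        _ = _ := by group
    rw [Subgroup.mem_normalizer_iff]
    intro n
    constructor
    · exact key e he (hex x hxP) n
    · intro hn
      have he' : e⁻¹ ∈ Subgroup.normalizer (A : Set G) := Subgroup.inv_mem _ he
      have hex' : e⁻¹ * x = x * e⁻¹ := by
        have h1 := hex x hxP
        calc e⁻¹ * x = e⁻¹ * (x * e) * e⁻¹ := by group
          _ = e⁻¹ * (e * x) * e⁻¹ := by rw [h1]
          _ = x * e⁻¹ := by group
      have h2 := key e⁻¹ he' hex' _ hn
      have h3 : e⁻¹ * (e * n * e⁻¹) * e⁻¹⁻¹ = n := by group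
      rw [h3] at h2
      exact h2

theorem pkA2 : Cfsg.Agent.Lib.Helper15.BG.T12.PkA2.{u} := by
  intro G _ _ p q hp hq hpq A P hA hA2 hPA hP hC
  exact pkA2_aux p q hp hq hpq A P hA hA2 hPA hP hC

end Cfsg.Agent.Lib.Helper37.BG
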